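import Cfsg.Agent.Lib.Helper17.ReeOut.Defs

set_option autoImplicit false

/-!
# ReeOut, package [MID]

An automorphism stabilising `{T t a b}` and `{Hh ν}` acts on the first coordinate by
`t ↦ c ψ t` and on the torus by `ψ`, for a field automorphism `ψ` (given [SEMI]).
-/

universe u v

namespace Cfsg.Agent.Lib.Helper39.ReeOut

open Cfsg.Agent.Lib.Helper17.ReeOut
open Cfsg.Agent.Lib.Helper17.ReeMult (UData)

theorem pkgMid (hSemi : PkgSemi.{u}) : PkgMid.{u, v} := by
  intro F _ _ G _ m T Hh φ hm hcard hUD hinj hφT hφH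
  classical
  -- characteristic `3`
  have h3 : (3 : F) = 0 := by
    have h := Nat.cast_card_eq_zero F
    rw [hcard] at h
    push_cast at h
    exact (pow_eq_zero_iff (by omega)).1 h
  haveI : CharP F 3 := (CharP.charP_iff_prime_eq_zero Nat.prime_three).2 (by exact_mod_cast h3)
  haveI : Fact (Nat.Prime 3) := ⟨Nat.prime_three⟩
  have hadd : ∀ t s : F, (t + s) ^ 3 ^ m = t ^ 3 ^ m + s ^ 3 ^ m := fun t s =>
    add_pow_char_pow t s 3 m
  have hT0 : T 0 0 0 = 1 := by
    have h := hUD.mul 0 0 0 0 0 0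
    simp at h
    exact h
  have hcube : ∀ t a b : F, (T t a b) ^ 3 = T 0 0 (-(t ^ (2 * 3 ^ m + 1))) := by
    intro t a b
    rw [pow_succ, pow_two, hUD.mul, hUD.mul, hadd]
    congr 1
    · linear_combination t * h3
    · linear_combination (a + t ^ 3 ^ m * t) * h3
    · linear_combination (b + 2 * t ^ (2 * 3 ^ m + 1) + 2 * t ^ 3 ^ m * a) * h3
  have hcube1 : ∀ t a b : F, (T t a b) ^ 3 = 1 ↔ t = 0 := by
    intro t a b
    rw [hcube, ← hT0]
    constructor
    · intro h
      have h1 := (hinj _ _ _ _ _ _ h).2.2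
      exact (pow_eq_zero_iff (by omega)).1 (neg_eq_zero.1 h1)
    · rintro rfl
      simp
  choose ft fa fb hf using hφT
  choose α hα using hφH
  -- `{T 0 a b}` is preserved
  have hZ : ∀ a b, ft 0 a b = 0 := by
    intro a b
    have h1 : (T (0 : F) a b) ^ 3 = 1 := (hcube1 0 a b).2 rfl
    have h2 : (φ (T 0 a b)) ^ 3 = 1 := by rw [← map_pow, h1, map_one]
    rw [hf] at h2
    exact (hcube1 _ _ _).1 h2
  -- the first coordinate of the image depends only on `t`
  have hdec : ∀ t a b, T t a b = T t 0 0 * T 0 a (b - 2 * t ^ 3 ^ m * a) := by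
    intro t a b
    rw [hUD.mul]
    congr 1 <;> ring
  have hft : ∀ t a b, ft t a b = ft t 0 0 := by
    intro t a b
    have h1 := hf t a b
    rw [hdec t a b, map_mul, hf, hf, hZ, hUD.mul] at h1
    have h2 := (hinj _ _ _ _ _ _ h1).1
    rw [add_zero] at h2
    exact h2.symm
  have hfadd : ∀ t s, ft (t + s) 0 0 = ft t 0 0 + ft s 0 0 := by
    intro t s
    have h1 := hUD.mul t 0 0 s 0 0
    have h2 := congrArg φ h1
    rw [map_mul, hf, hf, hf, hUD.mul] at h2
    have h4 := (hinj _ _ _ _ _ _ h2).1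
    rw [hft (t + s)] at h4
    exact h4.symm
  have hfinj : Function.Injective (fun t => ft t 0 0) := by
    intro t s hts
    simp only at hts
    have h1 : ft (t - s) 0 0 = 0 := by
      have h := hfadd (t - s) s
      rw [sub_add_cancel, hts] at h
      linear_combination (-1 : F) * h
    have h2 : (φ (T (t - s) 0 0)) ^ 3 = 1 := by
      rw [hf, h1]
      exact (hcube1 0 _ _).2 rfl
    rw [← map_pow] at h2
    have h4 : (T (t - s) 0 0) ^ 3 = 1 := φ.injective (h2.trans (map_one φ).symm)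
    exact sub_eq_zero.1 ((hcube1 _ _ _).1 h4)
  have hsemi : ∀ (ν : Fˣ) (t : F), ft ((ν : F) * t) 0 0 = (α ν : F) * ft t 0 0 := by
    intro ν t
    have h1 := hUD.conj ν t 0 0
    have h2 := congrArg φ h1
    rw [map_mul, map_mul, map_inv, hα, hf, hUD.conj, hf] at h2
    have h4 := (hinj _ _ _ _ _ _ h2).1
    rw [hft ((ν : F) * t)] at h4
    exact h4.symm
  obtain ⟨c, ψ, hc, hψ⟩ := hSemi F (fun t => ft t 0 0) α hfadd hfinj hsemi
  refine ⟨c, ψ, ?_, ?_⟩
  · intro t a b
    refine ⟨fa t a b, fb t a b, ?_⟩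
    rw [hf, hft, ← hc t]
  · intro ν
    exact ⟨α ν, hψ ν, hα ν⟩

end Cfsg.Agent.Lib.Helper39.ReeOut
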