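import Cfsg.Agent.Lib.Helper17.ReeOut.Defs

set_option autoImplicit false

/-!
# ReeOut, package [RIG2]

An automorphism of a group with rank-one Bruhat data `(U, H, n)` that is trivial on `U` and on
`H` and stabilises `n U n⁻¹` is trivial, provided `H` acts faithfully on `U`.
-/

universe u

namespace Cfsg.Agent.Lib.Helper39.ReeOut

open Cfsg.Agent.Lib.Helper17.ReeOut

theorem pkgRig2 : PkgRig2.{u} := by
  intro G _ _ U H n hBN hfaith φ hφU hφH hφn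
  have hninv : n⁻¹ = n := inv_eq_of_mul_eq_one_left hBN.nsq
  obtain ⟨g, hg⟩ : ∃ g, g = φ n := ⟨_, rfl⟩
  have hgg : g * g = 1 := by
    rw [hg, ← map_mul, hBN.nsq, map_one]
  obtain ⟨x, hxU, hx1⟩ := hBN.ne
  obtain ⟨y, hyU, hy⟩ := hφn x hxU
  have hy' : g * x * g⁻¹ = n * y * n⁻¹ := by
    rw [← hy, map_mul, map_mul, map_inv, hφU x hxU, hg]
  have hy1 : y ≠ 1 := by
    rintro rfl
    apply hx1
    have h1 : g * x * g⁻¹ = 1 := by rw [hy']; group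
    calc x = g⁻¹ * (g * x * g⁻¹) * g := by group
      _ = 1 := by rw [h1]; group
  -- `n⁻¹ g ∈ U H`
  obtain ⟨v, hvU, h, hhH, hvh⟩ := hBN.ti (n⁻¹ * g) x hxU hx1 (by
    have h1 : n⁻¹ * g * x * (n⁻¹ * g)⁻¹ = y := by
      calc n⁻¹ * g * x * (n⁻¹ * g)⁻¹ = n⁻¹ * (g * x * g⁻¹) * n := by group
        _ = y := by rw [hy']; group
    rw [h1]; exact hyU)
  -- `g n ∈ U H`
  obtain ⟨v', hv'U, h', hh'H, hvh'⟩ := hBN.ti (g * n) y hyU hy1 (by
    have h1 : g * n * y * (g * n)⁻¹ = x := by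
      calc g * n * y * (g * n)⁻¹ = g * (n * y * n⁻¹) * g⁻¹ := by group
        _ = g * (g * x * g⁻¹) * g⁻¹ := by rw [hy']
        _ = (g * g) * x * (g * g)⁻¹ := by group
        _ = x := by rw [hgg]; group
    rw [h1]; exact hxU)
  -- `v = 1`
  have hg1 : g = n * (v * h) := by rw [← hvh]; group
  have hv1 : v = 1 := by
    apply hBN.hV v hvU v' hv'U (h' * (n * h * n⁻¹)⁻¹)
      (H.mul_mem hh'H (H.inv_mem (hBN.nH h hhH)))
    have h2 : n * (v * h) * n⁻¹ = v' * h' := by rw [hninv, ← hg1]; exact hvh'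
    calc n * v * n⁻¹ = (n * (v * h) * n⁻¹) * (n * h * n⁻¹)⁻¹ := by group
      _ = v' * h' * (n * h * n⁻¹)⁻¹ := by rw [h2]
      _ = v' * (h' * (n * h * n⁻¹)⁻¹) := by rw [mul_assoc]
  have hgn : g = n * h := by rw [hg1, hv1, one_mul]
  -- `h` centralises `U`
  have hcent : ∀ u ∈ U, h * u * h⁻¹ = u := by
    intro u huU
    by_cases hu1 : u = 1
    · subst hu1; group
    rcases hBN.cells (n * u * n⁻¹) with ⟨u1, hu1U, k, hkH, he⟩ | ⟨u1, hu1U, k, hkH, u2, hu2U, he⟩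
    · exact absurd (hBN.hV u huU u1 hu1U k hkH he) hu1
    · have e1 : φ (n * u * n⁻¹) = n * (h * u * h⁻¹) * n⁻¹ := by
        rw [map_mul, map_mul, map_inv, hφU u huU, ← hg, hgn]; group
      have e2 : φ (n * u * n⁻¹) = u1 * k * (n * h) * u2 := by
        rw [he, map_mul, map_mul, map_mul, hφU u1 hu1U, hφU u2 hu2U, hφH k hkH, ← hg, hgn]
      have hw : h * u * h⁻¹ * u⁻¹ ∈ U := U.mul_mem (hBN.hU h hhH u huU) (U.inv_mem huU)
      have hk'H : k * (n * h * n⁻¹) * k⁻¹ ∈ H :=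
        H.mul_mem (H.mul_mem hkH (hBN.nH h hhH)) (H.inv_mem hkH)
      have key : n * (h * u * h⁻¹ * u⁻¹) * n⁻¹ =
          (u1 * ((k * (n * h * n⁻¹) * k⁻¹) * u1⁻¹ * (k * (n * h * n⁻¹) * k⁻¹)⁻¹)) *
            (k * (n * h * n⁻¹) * k⁻¹) := by
        calc n * (h * u * h⁻¹ * u⁻¹) * n⁻¹
            = (n * (h * u * h⁻¹) * n⁻¹) * (n * u * n⁻¹)⁻¹ := by group
          _ = (u1 * k * (n * h) * u2) * (u1 * k * n * u2)⁻¹ := by rw [← e1, e2, he]
          _ = _ := by group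
      have hw1 := hBN.hV _ hw _
        (U.mul_mem hu1U (hBN.hU _ hk'H u1⁻¹ (U.inv_mem hu1U))) _ hk'H key
      calc h * u * h⁻¹ = (h * u * h⁻¹ * u⁻¹) * u := by group
        _ = u := by rw [hw1, one_mul]
  have hh1 : h = 1 := hfaith h hhH hcent
  have hφn' : φ n = n := by rw [← hg, hgn, hh1, mul_one]
  ext z
  rcases hBN.cells z with ⟨u1, hu1U, k, hkH, he⟩ | ⟨u1, hu1U, k, hkH, u2, hu2U, he⟩
  · rw [he, map_mul, hφU u1 hu1U, hφH k hkH]; rfl
  · rw [he, map_mul, map_mul, map_mul, hφU u1 hu1U, hφH k hkH, hφU u2 hu2U, hφn']; rfl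

end Cfsg.Agent.Lib.Helper39.ReeOut
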